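import Cfsg.Agent.Modular.CyclicTI.Trace

/-!
# Faithful modules of a group with a cyclic TI Sylow subgroup in its own characteristic

`sub_le_finrank`: a faithful irreducible module has dimension at least `p ^ n - (p - 1)`.  For a
generator `x` and the automiser `A` of order `e ∣ p - 1` the endomorphism
`z = ∑ a ∈ A, (a x - 1) ^ e` commutes with the normaliser; its relative trace kills `ker (x - 1)`,
so it vanishes, and then `z` is a sum of traces over `P`, which forces the nilpotency index `s` of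
`x - 1` to satisfy `p ^ n ≤ s + e`.
-/

set_option autoImplicit false

namespace CfsgLib.Modular.CyclicTI

open Finset

variable {G : Type*} [Group G] [Finite G]

/-- The automiser of a cyclic Sylow subgroup has order dividing `p - 1`. -/
theorem card_automizer_dvd {p : ℕ} [hp : Fact p.Prime] (P : Sylow p G)
    [IsCyclic (P : Subgroup G)] {n : ℕ} (hn : 1 ≤ n) (hP : Nat.card (P : Subgroup G) = p ^ n) :
    Nat.card (P : Subgroup G).normalizerMonoidHom.range ∣ p - 1 := by
  set φ := (P : Subgroup G).normalizerMonoidHom with hφ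
  have h1 : Nat.card φ.range ∣ Nat.card (MulAut (P : Subgroup G)) := Subgroup.card_subgroup_dvd_card _
  rw [IsCyclic.card_mulAut, hP, Nat.totient_prime_pow hp.out hn] at h1
  have hle : (P : Subgroup G).subgroupOf (Subgroup.normalizer ((P : Subgroup G) : Set G)) ≤ φ.ker := by
    rw [hφ, Subgroup.normalizerMonoidHom_ker]
    intro y hy
    rw [Subgroup.mem_subgroupOf] at hy ⊢
    refine Subgroup.mem_centralizer_iff.2 fun z hz => ?_
    haveI : IsMulCommutative (P : Subgroup G) := inferInstance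
    exact congrArg Subtype.val (IsMulCommutative.is_comm.comm (⟨z, hz⟩ : (P : Subgroup G)) ⟨y, hy⟩)
  have h2 : φ.ker.index ∣ (P : Subgroup G).index := by
    refine (Subgroup.index_dvd_of_le hle).trans ?_
    exact Subgroup.relIndex_dvd_index_of_le Subgroup.le_normalizer |>.trans dvd_rfl
  have h3 : Nat.card φ.range = φ.ker.index := (Subgroup.index_ker φ).symm
  have hcop : (Nat.card φ.range).Coprime p := by
    rw [Nat.coprime_comm, hp.out.coprime_iff_not_dvd, h3]
    exact fun h => P.not_dvd_index (h.trans h2)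
  exact (hcop.pow_right (n - 1)).dvd_of_dvd_mul_left h1

variable {F : Type*} [Field F] {V : Type*} [AddCommGroup V] [Module F V] [FiniteDimensional F V]

theorem sub_le_finrank {p : ℕ} [hp : Fact p.Prime] [CharP F p] (P : Sylow p G)
    [IsCyclic (P : Subgroup G)] {n : ℕ} (hn : 2 ≤ n) (hP : Nat.card (P : Subgroup G) = p ^ n)
    (hfree : ∀ x ∈ (P : Subgroup G), ∀ g : G, g ∉ Subgroup.normalizer ((P : Subgroup G) : Set G) →
      g⁻¹ * x * g ∈ Subgroup.normalizer ((P : Subgroup G) : Set G) → x = 1)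
    (ρ : Representation F G V) (hinj : Function.Injective ρ)
    (hirr : ∀ W : Submodule F V, (∀ g : G, ∀ w ∈ W, ρ g w ∈ W) → W = ⊥ ∨ W = ⊤) :
    p ^ n - (p - 1) ≤ Module.finrank F V := by
  classical
  by_contra hd
  push Not at hd
  set N := Subgroup.normalizer ((P : Subgroup G) : Set G) with hN
  obtain ⟨x₀, hgen⟩ := IsCyclic.exists_generator (α := (P : Subgroup G))
  have hord : orderOf x₀ = p ^ n := by rw [orderOf_eq_card_of_forall_mem_zpowers hgen, hP]
  haveI : Fintype G := Fintype.ofFinite G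
  set A := (P : Subgroup G).normalizerMonoidHom.range with hA
  set e := Nat.card A with he
  have hedvd : e ∣ p - 1 := card_automizer_dvd P (by omega) hP
  have hep : e ≤ p - 1 := Nat.le_of_dvd (by have := hp.out.two_le; omega) hedvd
  have he0 : 0 < e := Nat.card_pos
  -- the generator as an endomorphism
  set X : Module.End F V := ρ (x₀ : G) with hX
  set Xi : Module.End F V := ρ (x₀ : G)⁻¹ with hXi
  have h1 : X * Xi = 1 := by rw [hX, hXi, ← map_mul, mul_inv_cancel, map_one]
  have h2 : Xi * X = 1 := by rw [hX, hXi, ← map_mul, inv_mul_cancel, map_one]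
  haveI : Nontrivial V := by
    by_contra hV
    rw [not_nontrivial_iff_subsingleton] at hV
    have hx : (x₀ : G) = 1 := hinj (LinearMap.ext fun v => Subsingleton.elim _ _)
    have h3 : x₀ = 1 := Subtype.ext hx
    rw [h3, orderOf_one] at hord
    have := Nat.pow_le_pow_right hp.out.pos (show 1 ≤ n by omega)
    have := hp.out.two_le
    omega
  haveI : CharP (Module.End F V) p :=
    charP_of_injective_algebraMap (algebraMap F (Module.End F V)).injective p
  have hfrob : ∀ m : ℕ, (X - 1) ^ p ^ m = ρ ((x₀ : G) ^ p ^ m) - 1 := fun m => by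
    rw [sub_pow_char_pow_of_commute _ _ (Commute.one_right X), one_pow, hX, ← map_pow]
  have hq : (X - 1) ^ p ^ n = 0 := by
    rw [hfrob, ← hord]
    have : (x₀ : G) ^ orderOf x₀ = 1 := by
      rw [← SubmonoidClass.coe_pow, pow_orderOf_eq_one]; rfl
    rw [this, map_one, sub_self]
  have hne : (X - 1) ^ p ^ (n - 1) ≠ 0 := by
    rw [hfrob, sub_ne_zero]
    intro h
    have h3 : x₀ ^ p ^ (n - 1) = 1 := Subtype.ext (hinj (by
      rw [SubmonoidClass.coe_pow, h, OneMemClass.coe_one, map_one]))
    have h4 := orderOf_dvd_of_pow_eq_one h3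
    rw [hord, Nat.pow_dvd_pow_iff_le_right hp.out.one_lt] at h4
    omega
  -- the nilpotency index
  have hex : ∃ s, (X - 1) ^ s = 0 := ⟨_, hq⟩
  set s := Nat.find hex with hs
  have hTs : (X - 1) ^ s = 0 := Nat.find_spec hex
  have hs1 : p ^ (n - 1) < s := by
    by_contra h
    push Not at h
    exact hne (pow_eq_zero_of_le h hTs)
  have hp_le : p ≤ p ^ (n - 1) := Nat.le_self_pow (by omega) p
  have hsd : s ≤ Module.finrank F V := by
    refine Nat.find_le ?_
    have hnil : IsNilpotent (X - 1) := ⟨_, hq⟩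
    have h3 := LinearMap.aeval_self_charpoly (X - 1)
    rw [hnil.charpoly_eq_X_pow_finrank, map_pow, Polynomial.aeval_X] at h3
    exact h3
  have hsum : s + e + 1 ≤ p ^ n := by omega
  -- the automiser acts by powers
  have hr : ∀ a : MulAut (P : Subgroup G), ∃ r : ℕ, a x₀ = x₀ ^ r := fun a => by
    obtain ⟨r, hr⟩ := mem_powers_iff_mem_zpowers.2 (hgen (a x₀))
    exact ⟨r, hr.symm⟩
  choose r hr using hr
  have hre : ∀ a ∈ A, ((r a : F)) ^ e = 1 := by
    intro a ha
    have hpow : ∀ i : ℕ, (a ^ i) x₀ = x₀ ^ (r a) ^ i := by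
      intro i
      induction i with
      | zero => simp
      | succ i ih => rw [pow_succ', MulAut.mul_apply, ih, map_pow, hr, ← pow_mul, ← pow_succ']
    have hae : a ^ e = 1 := by
      have := pow_card_eq_one' (x := (⟨a, ha⟩ : A))
      exact congrArg Subtype.val this
    have h3 : x₀ ^ (r a) ^ e = x₀ ^ 1 := by rw [← hpow, hae, pow_one]; rfl
    rw [pow_eq_pow_iff_modEq, hord] at h3
    have h4 : (r a) ^ e ≡ 1 [MOD p] := h3.of_dvd (dvd_pow_self p (by omega))
    have h5 := (CharP.natCast_eq_natCast F p).2 h4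
    simpa using h5
  haveI : Fintype A := Fintype.ofFinite _
  set z : Module.End F V := ∑ a : A, (ρ (((a : MulAut (P : Subgroup G)) x₀ : (P : Subgroup G)) : G) - 1) ^ e with hz
  -- `z` commutes with the normaliser
  have hzcomm : ∀ h ∈ N, ρ h * z = z * ρ h := by
    intro h hh
    let φh : A := ⟨(P : Subgroup G).normalizerMonoidHom ⟨h, hh⟩, ⟨_, rfl⟩⟩
    rw [hz, Finset.mul_sum, Finset.sum_mul]
    refine Fintype.sum_equiv (Equiv.mulLeft φh) _ _ fun a => ?_
    refine (SemiconjBy.pow_right ?_ e).eq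
    show ρ h * (_ - 1) = (_ - 1) * ρ h
    rw [mul_sub, sub_mul, mul_one, one_mul, ← map_mul, ← map_mul]
    congr 2
    show h * _ = (h * (((a : MulAut (P : Subgroup G)) x₀ : (P : Subgroup G)) : G) * h⁻¹) * h
    group
  -- the geometric factor
  have hfac : ∀ a : A, (ρ (((a : MulAut (P : Subgroup G)) x₀ : (P : Subgroup G)) : G) - 1) ^ e =
      (∑ i ∈ Finset.range (r a), X ^ i) ^ e * (X - 1) ^ e := by
    intro a
    rw [hr, SubmonoidClass.coe_pow, map_pow, ← hX, ← geom_sum_mul, Commute.mul_pow]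
    exact Commute.sum_left _ _ _ fun i _ =>
      ((Commute.refl X).pow_left i).sub_right (Commute.one_right _)
  have hzker : ∀ u : V, (X - 1) u = 0 → z u = 0 := by
    intro u hu
    rw [hz, LinearMap.sum_apply]
    refine Finset.sum_eq_zero fun a _ => ?_
    obtain ⟨e', he'⟩ := Nat.exists_eq_succ_of_ne_zero he0.ne'
    rw [hfac, Module.End.mul_apply, he', pow_succ (X - 1), Module.End.mul_apply, hu, map_zero, map_zero]
  -- the relative trace
  let c : G → Module.End F V := fun g => ρ g * z * ρ g⁻¹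
  have hc : ∀ (g h : G), h ∈ N → c (g * h) = c g := by
    intro g h hh
    show ρ (g * h) * z * ρ (g * h)⁻¹ = ρ g * z * ρ g⁻¹
    rw [map_mul, mul_assoc (ρ g), hzcomm h hh, mul_inv_rev, map_mul, ← mul_assoc (ρ g),
      mul_assoc (ρ g * z), ← mul_assoc (ρ h), ← map_mul, mul_inv_cancel, map_one, one_mul]
  have hout : ∀ g : G, c (QuotientGroup.mk (s := N) g).out = c g := by
    intro g
    obtain ⟨h, hh⟩ := QuotientGroup.mk_out_eq_mul N g
    rw [hh, hc g h h.2]
  haveI : Fintype (G ⧸ N) := Fintype.ofFinite _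
  haveI : Fintype (MulAction.orbitRel.Quotient (P : Subgroup G) (G ⧸ N)) := Fintype.ofFinite _
  set ω₀ : G ⧸ N := QuotientGroup.mk 1 with hω₀
  have hout₀ : c ω₀.out = z := by rw [hω₀, hout]; simp [c]
  set τ : Module.End F V := ∑ ω : G ⧸ N, c ω.out with hτ
  have hτcomm : ∀ g : G, ρ g * τ = τ * ρ g := by
    intro g
    rw [hτ, Finset.mul_sum, Finset.sum_mul]
    refine Fintype.sum_equiv (MulAction.toPerm g) _ _ fun ω => ?_
    induction ω using QuotientGroup.induction_on with
    | H y =>
      show ρ g * c (QuotientGroup.mk y).out = c (QuotientGroup.mk (g * y)).out * ρ g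
      rw [hout, hout]
      show ρ g * (ρ y * z * ρ y⁻¹) = ρ (g * y) * z * ρ (g * y)⁻¹ * ρ g
      rw [mul_inv_rev, map_mul, map_mul, mul_assoc (ρ g * ρ y * z), mul_assoc (ρ y⁻¹),
        ← map_mul ρ g⁻¹ g, inv_mul_cancel, map_one, mul_one, mul_assoc, mul_assoc, mul_assoc]
  -- the part off the normaliser consists of traces
  have hrest : ∀ (j : ℕ) (v : V), ((X - 1) ^ j) v = 0 → j + s ≤ p ^ n →
      (∑ ω ∈ Finset.univ.erase ω₀, c ω.out) v = 0 := by
    intro j v hv hjs
    rw [← Finset.sum_fiberwise _ (fun ω : G ⧸ N =>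
      (Quotient.mk'' ω : MulAction.orbitRel.Quotient (P : Subgroup G) (G ⧸ N))), LinearMap.sum_apply]
    refine Finset.sum_eq_zero fun Q _ => ?_
    rcases (((Finset.univ : Finset (G ⧸ N)).erase ω₀).filter
      (fun ω => (Quotient.mk'' ω : MulAction.orbitRel.Quotient (P : Subgroup G) (G ⧸ N)) = Q)).eq_empty_or_nonempty
      with h | ⟨ω, hω⟩
    · rw [h, Finset.sum_empty, LinearMap.zero_apply]
    rw [Finset.mem_filter, Finset.mem_erase] at hω
    obtain ⟨⟨hω0, -⟩, rfl⟩ := hω
    have hset : ((Finset.univ : Finset (G ⧸ N)).erase ω₀).filter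
        (fun ν => (Quotient.mk'' ν : MulAction.orbitRel.Quotient (P : Subgroup G) (G ⧸ N)) = Quotient.mk'' ω) =
        (Finset.range (p ^ n)).image (fun i : ℕ => ((x₀ : G) ^ i) • ω) := by
      ext ν
      rw [Finset.mem_filter, Finset.mem_erase, Finset.mem_image, Quotient.eq'',
        MulAction.orbitRel_apply]
      constructor
      · rintro ⟨-, x, hx⟩
        obtain ⟨i, hi⟩ := mem_powers_iff_mem_zpowers.2 (hgen x)
        refine ⟨i % p ^ n, Finset.mem_range.2 (Nat.mod_lt _ (pow_pos hp.out.pos n)), ?_⟩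
        rw [← hx, ← hi, ← hord]
        show (((x₀ : G)) ^ (i % orderOf x₀)) • ω = ((x₀ ^ i : (P : Subgroup G)) : G) • ω
        rw [← SubmonoidClass.coe_pow, pow_mod_orderOf]
      · rintro ⟨i, -, rfl⟩
        refine ⟨⟨fun h => hω0 ?_, Finset.mem_univ _⟩, x₀ ^ i, rfl⟩
        have h3 : ω = ((x₀ : G) ^ i)⁻¹ • ω₀ := eq_inv_smul_iff.2 h
        rw [h3, hω₀]
        show QuotientGroup.mk (((x₀ : G) ^ i)⁻¹ * 1) = QuotientGroup.mk 1
        exact QuotientGroup.eq.2 (by simpa [hN] using Subgroup.le_normalizer (pow_mem x₀.2 i))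
    have hinjOn : Set.InjOn (fun i : ℕ => ((x₀ : G) ^ i) • ω) (Finset.range (p ^ n) : Finset ℕ) := by
      intro i hi k hk hik
      induction ω using QuotientGroup.induction_on with
      | H g =>
        have hg : g ∉ N := fun hg => hω0 (QuotientGroup.eq.2 (by simpa using hg))
        have h3 : ((x₀ : G) ^ i * g)⁻¹ * ((x₀ : G) ^ k * g) ∈ N := QuotientGroup.eq.1 hik
        have h4 : g⁻¹ * (((x₀ : G) ^ i)⁻¹ * (x₀ : G) ^ k) * g ∈ N := by
          simpa [mul_assoc] using h3
        have h5 := hfree _ (mul_mem (inv_mem (pow_mem x₀.2 i)) (pow_mem x₀.2 k)) g hg h4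
        have h6 : x₀ ^ i = x₀ ^ k := Subtype.ext (by
          rw [SubmonoidClass.coe_pow, SubmonoidClass.coe_pow]; exact inv_mul_eq_one.1 h5)
        rw [pow_eq_pow_iff_modEq, hord] at h6
        exact h6.eq_of_lt_of_lt (Finset.mem_range.1 hi) (Finset.mem_range.1 hk)
    rw [hset, Finset.sum_image hinjOn]
    have hci : ∀ i : ℕ, c (((x₀ : G) ^ i) • ω).out = X ^ i * c ω.out * Xi ^ i := by
      intro i
      induction ω using QuotientGroup.induction_on with
      | H g =>
        show c (QuotientGroup.mk ((x₀ : G) ^ i * g)).out = _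
        rw [hout, hout]
        show ρ ((x₀ : G) ^ i * g) * z * ρ ((x₀ : G) ^ i * g)⁻¹ = X ^ i * (ρ g * z * ρ g⁻¹) * Xi ^ i
        rw [hX, hXi, ← map_pow, ← map_pow, inv_pow, mul_inv_rev, map_mul, map_mul]
        simp only [mul_assoc]
    rw [Finset.sum_congr rfl fun i _ => hci i]
    exact trace_apply_eq_zero h1 h2 _ hv (pow_eq_zero_of_le (by omega) hTs)
  have hτsplit : τ = z + ∑ ω ∈ Finset.univ.erase ω₀, c ω.out := by
    rw [hτ, ← Finset.add_sum_erase _ _ (Finset.mem_univ ω₀), hout₀]
  obtain ⟨w, hw⟩ : ∃ w, ((X - 1) ^ (s - 1)) w ≠ 0 := by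
    by_contra h
    push Not at h
    exact Nat.find_min hex (show s - 1 < s by omega) (LinearMap.ext h)
  set u := ((X - 1) ^ (s - 1)) w with hu
  have hTu : (X - 1) u = 0 := by
    rw [hu, ← Module.End.mul_apply, ← pow_succ', show s - 1 + 1 = s by omega, hTs,
      LinearMap.zero_apply]
  have hτ0 : τ = 0 := by
    have hτu : τ u = 0 := by
      rw [hτsplit, LinearMap.add_apply, hzker u hTu, zero_add]
      exact hrest 1 u (by rw [pow_one, hTu]) (by omega)
    rcases hirr (LinearMap.ker τ) (fun g v hv => by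
      rw [LinearMap.mem_ker, ← Module.End.mul_apply, ← hτcomm, Module.End.mul_apply,
        LinearMap.mem_ker.1 hv, map_zero]) with h | h
    · exact absurd (Submodule.mem_bot F |>.1 (h ▸ LinearMap.mem_ker.2 hτu)) hw
    · exact LinearMap.ker_eq_top.1 h
  set v := ((X - 1) ^ (s - (e + 1))) w with hv
  have hv1 : ((X - 1) ^ (e + 1)) v = 0 := by
    rw [hv, ← Module.End.mul_apply, ← pow_add, show e + 1 + (s - (e + 1)) = s by omega, hTs,
      LinearMap.zero_apply]
  have hzv : z v = 0 := by
    have h3 : τ v = 0 := by rw [hτ0, LinearMap.zero_apply]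
    rwa [hτsplit, LinearMap.add_apply, hrest (e + 1) v hv1 (by omega), add_zero] at h3
  have hev : ((X - 1) ^ e) v = u := by
    rw [hv, hu, ← Module.End.mul_apply, ← pow_add, show e + (s - (e + 1)) = s - 1 by omega]
  have hXu : ∀ i : ℕ, (X ^ i) u = u := by
    intro i
    induction i with
    | zero => rw [pow_zero, Module.End.one_apply]
    | succ i ih =>
      rw [pow_succ, Module.End.mul_apply]
      have : X u = u := sub_eq_zero.1 hTu
      rw [this, ih]
  have hUu : ∀ m k : ℕ, ((∑ i ∈ Finset.range m, X ^ i) ^ k) u = ((m : F) ^ k) • u := by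
    intro m k
    induction k with
    | zero => simp
    | succ k ih =>
      rw [pow_succ, Module.End.mul_apply, LinearMap.sum_apply,
        Finset.sum_congr rfl fun i _ => hXu i, Finset.sum_const, Finset.card_range,
        ← Nat.cast_smul_eq_nsmul F, map_smul, ih, smul_smul, ← pow_succ']
  rw [hz, LinearMap.sum_apply, Finset.sum_congr rfl (fun a _ => by
    rw [hfac, Module.End.mul_apply, hev, hUu, hre a a.2, one_smul]), Finset.sum_const,
    Finset.card_univ, ← Nat.card_eq_fintype_card, ← Nat.cast_smul_eq_nsmul F, smul_eq_zero] at hzv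
  rcases hzv with h | h
  · rw [CharP.cast_eq_zero_iff F p] at h
    have := Nat.le_of_dvd he0 h
    have := hp.out.two_le
    omega
  · exact hw h

end CfsgLib.Modular.CyclicTI
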