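import Mathlib

/-!
# Traces over a cyclic `p`-group in characteristic `p`

For a unipotent `X` with `T = X - 1`, the sum of the conjugates `X ^ i * h * X ^ (-i)` over
`i < p ^ n` maps `ker (T ^ j)` into the range of `T ^ (p ^ n - j)`.
-/

set_option autoImplicit false

namespace CfsgLib.Modular.CyclicTI

open Finset Polynomial

theorem geom_sum_eq_sub_pow (F : Type*) [Field F] (p : ℕ) [hp : Fact p.Prime] [CharP F p] (n : ℕ) :
    (∑ i ∈ Finset.range (p ^ n), (Polynomial.X : F[X]) ^ i) =
      (Polynomial.X - 1) ^ (p ^ n - 1) := by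
  have hne : (Polynomial.X - 1 : F[X]) ≠ 0 := by
    simpa using Polynomial.X_sub_C_ne_zero (1 : F)
  apply mul_right_cancel₀ hne
  rw [geom_sum_mul, ← pow_succ, Nat.sub_add_cancel (pow_pos hp.out.pos n), sub_pow_char_pow,
    one_pow]

variable {F : Type*} [Field F] {V : Type*} [AddCommGroup V] [Module F V]

/-- Conjugation by `X`. -/
def conjEnd (X Xi : Module.End F V) : Module.End F (Module.End F V) where
  toFun h := X * h * Xi
  map_add' a b := by rw [mul_add, add_mul]
  map_smul' c a := by simp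

theorem conjEnd_pow (X Xi h : Module.End F V) (i : ℕ) :
    (conjEnd X Xi ^ i) h = X ^ i * h * Xi ^ i := by
  induction i with
  | zero => simp
  | succ i ih =>
    rw [pow_succ', Module.End.mul_apply, ih]
    show X * (X ^ i * h * Xi ^ i) * Xi = _
    rw [pow_succ', pow_succ]
    noncomm_ring

theorem sub_one_pow_apply {X Xi : Module.End F V} (h1 : X * Xi = 1) (h2 : Xi * X = 1)
    (h : Module.End F V) (m : ℕ) :
    ∀ (j : ℕ) (v : V), ((X - 1) ^ j) v = 0 →
      (((conjEnd X Xi - 1) ^ m) h) v ∈ LinearMap.range ((X - 1) ^ (m + 1 - j)) := by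
  induction m with
  | zero =>
    intro j v hv
    rcases Nat.eq_zero_or_pos j with rfl | hj
    · rw [pow_zero, Module.End.one_apply] at hv
      rw [hv, map_zero]
      exact zero_mem _
    · rw [show 0 + 1 - j = 0 by omega, pow_zero]
      exact ⟨_, rfl⟩
  | succ m ih =>
    intro j v hv
    rcases Nat.eq_zero_or_pos j with rfl | hj
    · rw [pow_zero, Module.End.one_apply] at hv
      rw [hv, map_zero]
      exact zero_mem _
    set D := ((conjEnd X Xi - 1) ^ m) h with hD
    have hstep : ((conjEnd X Xi - 1) ^ (m + 1)) h = ((X - 1) * D - D * (X - 1)) * Xi := by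
      rw [pow_succ', Module.End.mul_apply, ← hD]
      show X * D * Xi - D = _
      calc X * D * Xi - D = X * D * Xi - D * (X * Xi) := by rw [h1, mul_one]
        _ = _ := by noncomm_ring
    have hcomm : Commute ((X - 1) ^ j) Xi := by
      refine Commute.pow_left ?_ j
      show (X - 1) * Xi = Xi * (X - 1)
      rw [sub_mul, mul_sub, h1, h2, one_mul, mul_one]
    have hw : ((X - 1) ^ j) (Xi v) = 0 := by
      rw [← Module.End.mul_apply, hcomm.eq, Module.End.mul_apply, hv, map_zero]
    rw [hstep, Module.End.mul_apply, LinearMap.sub_apply, Module.End.mul_apply,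
      Module.End.mul_apply]
    refine sub_mem ?_ ?_
    · obtain ⟨y, hy⟩ := ih j (Xi v) hw
      rw [← hy, ← Module.End.mul_apply, ← pow_succ']
      by_cases hjm : j ≤ m + 1
      · rw [show m + 1 + 1 - j = m + 1 - j + 1 by omega]
        exact ⟨y, rfl⟩
      · rw [show m + 1 + 1 - j = 0 by omega, pow_zero]
        exact ⟨_, rfl⟩
    · obtain ⟨y, hy⟩ := ih (j - 1) ((X - 1) (Xi v)) (by
        rw [← Module.End.mul_apply, ← pow_succ, Nat.sub_add_cancel hj, hw])
      refine ⟨y, ?_⟩
      rw [← hy, show m + 1 + 1 - j = m + 1 - (j - 1) by omega]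

/-- The trace kills `ker (T ^ j)` when `T ^ (p ^ n - j) = 0`. -/
theorem trace_apply_eq_zero {p n : ℕ} [Fact p.Prime] [CharP F p] {X Xi : Module.End F V}
    (h1 : X * Xi = 1) (h2 : Xi * X = 1) (h : Module.End F V) {j : ℕ} {v : V}
    (hv : ((X - 1) ^ j) v = 0) (hT : (X - 1) ^ (p ^ n - j) = 0) :
    (∑ i ∈ Finset.range (p ^ n), X ^ i * h * Xi ^ i) v = 0 := by
  have hsum : (∑ i ∈ Finset.range (p ^ n), X ^ i * h * Xi ^ i) =
      (∑ i ∈ Finset.range (p ^ n), conjEnd X Xi ^ i) h := by
    rw [LinearMap.sum_apply]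
    exact Finset.sum_congr rfl fun i _ => (conjEnd_pow X Xi h i).symm
  have hid := congrArg (Polynomial.aeval (conjEnd X Xi)) (geom_sum_eq_sub_pow F p n)
  simp only [map_sum, map_pow, map_sub, Polynomial.aeval_X, map_one] at hid
  rw [hsum, hid]
  obtain ⟨y, hy⟩ := sub_one_pow_apply h1 h2 h (p ^ n - 1) j v hv
  rw [Nat.sub_add_cancel (pow_pos (Fact.out : p.Prime).pos n), hT, LinearMap.zero_apply] at hy
  exact hy.symm

end CfsgLib.Modular.CyclicTI
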